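import Cfsg.Agent.PF.Bridge
import Cfsg.Agent.PF.P04

/-! More dictionary lemmas: Hypothesis (4.2) with the ambient group, quotients, kernels. -/

set_option autoImplicit false
set_option linter.unusedVariables false
set_option linter.unusedSectionVars false

namespace Cfsg.Agent.PF

open Cfsg.Agent.BG
open scoped _root_.Classical ComplexConjugate

variable {L : Type*} [Group L] [Finite L]

theorem primeTI_top {K W₁ W₂ : Subgroup L} [hK : K.Normal] (hKW₁ : K ⊓ W₁ = ⊥) (hKW₁' : K ⊔ W₁ = ⊤)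
    (hW₁ : W₁ ≠ ⊥) (hW₁c : IsCyclic W₁) (hHall : Nat.Coprime (Nat.card W₁) W₁.index)
    (hW₂ : W₂ ≠ ⊥) (hW₂c : IsCyclic W₂) (hW₂K : W₂ ≤ K)
    (hC : ∀ x ∈ W₁, x ≠ 1 → K ⊓ Subgroup.centralizer ({x} : Set L) = W₂)
    (hodd : Odd (Nat.card ↥(W₁ ⊔ W₂))) : PrimeTI ⊤ K W₁ W₂ := by
  have sd : Sdprod K W₁ ⊤ := ⟨hKW₁', le_top.trans (normal_top K).norm, hKW₁⟩
  exact ⟨sd, hW₁, by rwa [← sd.relIndexr, Subgroup.relIndex_top_right], hW₁c, hW₂, hW₂K, hW₂c, hC,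
    hodd⟩

theorem nil_quotient_of_mathlib {M H : Subgroup L} (h : M ≤ H) [(M.subgroupOf H).Normal]
    (hnil : Group.IsNilpotent (H ⧸ M.subgroupOf H)) : Group.IsNilpotent ↥(H /ᵍ M) := by
  have := isog_nil (quotient_isog_mathlib (M.subgroupOf H)) hnil
  rwa [Subgroup.subgroupOf_map_subtype, inf_eq_left.2 h] at this

theorem not_le_cfker_Irr {H Z : Subgroup L} {χ : L → ℂ} (h : χ ∈ Irr H) :
    ¬ Z ≤ cfker χ ↔ ∃ z ∈ Z, χ z ≠ χ 1 := by
  rw [le_cfker_Irr h]; push Not; rfl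

end Cfsg.Agent.PF
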