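import Cfsg.Agent.PF.Bridge2
import Cfsg.Agent.PF.P05a

/-! Dictionary: `inducedIrrAbove (H.subgroupOf L) ⊥` versus `seqIndD H L H ⊥`, and coherence for induction. -/

set_option autoImplicit false
set_option linter.unusedVariables false
set_option linter.unusedSectionVars false

namespace Cfsg.Agent.PF

open Cfsg.Agent.BG
open scoped _root_.Classical ComplexConjugate

variable {X : Type*} [Group X] {H L : Subgroup X}

theorem normalIn_of_conj [Finite X] (h : H ≤ L) (hn : ∀ x ∈ L, ∀ h ∈ H, x * h * x⁻¹ ∈ H) : H ⊴ L :=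
  ⟨h, fun x hx => Subgroup.mem_normalizer_fintype (hn x hx)⟩

theorem seqIndD_bot_eq_image [Finite X] [Fintype L] (h : H ≤ L) :
    (seqIndD H L H ⊥ : Set (X → ℂ)) = ext L '' inducedIrrAbove (H.subgroupOf L) ⊥ := by
  ext φ
  rw [Finset.mem_coe, mem_seqIndD_bot]
  constructor
  · rintro ⟨θ, h1, h2, rfl⟩
    refine ⟨_, ⟨_, Irr_subgroupOf h h1, fun e => h2 ?_, fun a ha => ?_, rfl⟩, ext_indFun h θ⟩
    · rw [← ext_restrict (mem_Irr.1 h1).1, ← ext_const_one]
      exact congrArg _ (funext fun x => congrFun e ⟨⟨x, h x.2⟩, x.2⟩)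
    · rw [show a = 1 from Subtype.ext (Subgroup.mem_bot.1 ha)]
  · rintro ⟨_, ⟨θ, h1, h2, -, rfl⟩, rfl⟩
    let e := Subgroup.subgroupOfEquivOfLe h
    have k : θ = fun x : H.subgroupOf L => ext H (fun y => θ (e.symm y)) ((x : L) : X) :=
      funext fun x => by rw [ext_of_mem _ (show ((x : L) : X) ∈ H from x.2)]; rfl
    refine ⟨ext H fun y => θ (e.symm y), ext_mem_Irr.2 (h1.comp_equiv e.symm), fun e' => h2 ?_, ?_⟩
    · rw [← ext_const_one, (ext_injective H).eq_iff] at e'
      exact funext fun x => by simpa using congrFun e' (e x)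
    · rw [← ext_indFun h, ← k]

/-- Coherence for induction, in the vocabulary of the statements. -/
theorem Coherent.isCoherent_ind {X : Type*} [Group X] [Fintype X] {H L : Subgroup X} [Fintype L]
    (h : H ≤ L) (hc : Coherent L ⊤ (seqIndD H L H ⊥) (Ind L ⊤))
    (h0 : ∃ α ∈ ZS1 (seqIndD H L H ⊥), α ≠ 0) :
    IsCoherent (inducedIrrAbove (H.subgroupOf L) ⊥) {1}ᶜ fun α : L → ℂ => indFun L α :=
  hc.isCoherent_ext (seqIndD_bot_eq_image h) (fun a _ => Ind_ext L a) h0

end Cfsg.Agent.PF
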